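import Mathlib
import Cfsg.Agent.Lib.Helper95.BRA.Defs
import Cfsg.Agent.Lib.Helper80.CharKer

/-!
# BRA (S4484) package [C3a]

`χ g * gcd (χ 1, |class of g|) / χ 1` is an algebraic integer (Bezout between `χ g` and the
central character value).
-/

set_option autoImplicit false

namespace Cfsg.Agent.Lib.Helper35.BRA

open Cfsg Cfsg.Agent.Lib.Helper95.BRA Cfsg.Agent.Lib.Helper80

universe u

/-- **[C3a]** -/
theorem pkgC3a : PkgC3a.{u} := by
  intro G _ _ χ hχ g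
  have hc := isCharacter_of_isIrrCharacter hχ
  have h1 : IsIntegral ℤ (χ g) := isIntegral_char_val hc g
  have h2 : IsIntegral ℤ (Cfsg.centralChar χ g) := isIntegral_centralChar_val hχ g
  set n := Cfsg.charDegree χ with hn
  set k := (Subgroup.centralizer ({g} : Set G)).index with hk
  have hn0 : (n : ℂ) ≠ 0 := by exact_mod_cast (charDegree_pos hχ).ne'
  have hχ1 : χ 1 = (n : ℂ) := char_one_eq_charDegree hc
  have hb := Nat.gcd_eq_gcd_ab n k
  have hb' : (Nat.gcd n k : ℂ) =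
      (n : ℂ) * ((Nat.gcdA n k : ℤ) : ℂ) + (k : ℂ) * ((Nat.gcdB n k : ℤ) : ℂ) := by
    exact_mod_cast congrArg (Int.cast : ℤ → ℂ) hb
  have e : χ g * (Nat.gcd n k : ℂ) / (n : ℂ) =
      ((Nat.gcdA n k : ℤ) : ℂ) * χ g + ((Nat.gcdB n k : ℤ) : ℂ) * Cfsg.centralChar χ g := by
    unfold Cfsg.centralChar
    rw [hb', hχ1, ← hk]
    field_simp
  rw [e]
  have i1 : IsIntegral ℤ (((Nat.gcdA n k : ℤ) : ℂ)) := by
    simpa using (isIntegral_algebraMap : IsIntegral ℤ (algebraMap ℤ ℂ (Nat.gcdA n k)))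
  have i2 : IsIntegral ℤ (((Nat.gcdB n k : ℤ) : ℂ)) := by
    simpa using (isIntegral_algebraMap : IsIntegral ℤ (algebraMap ℤ ℂ (Nat.gcdB n k)))
  exact (i1.mul h1).add (i2.mul h2)

end Cfsg.Agent.Lib.Helper35.BRA
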